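import Cfsg.Agent.H6.F23K1

/-!
# Rational representations of degree twenty-three: the case analysis
-/

set_option autoImplicit false

namespace Cfsg.Agent.H2.F23

open Module

variable {V : Type*} [AddCommGroup V] [Module ℚ V] {G : Type*} [Group G]

namespace Lat

variable {ρ : Representation ℚ G V} {B : LinearMap.BilinForm ℚ V} {L : Submodule ℤ V}
  {x : G} {w : V} {d : ℕ} (h : Lat ρ B L x w d)
include h

theorem kd5 (hn : NonA B L w) (e : d = 5) : False := by
  obtain ⟨g, hg⟩ := h.toRep.no_line h.w0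
  obtain ⟨y, hy, y0, e1⟩ := h.kgen (c := (2 : ℕ)) (by norm_num) g (h.kodd (by rw [e]; decide) g)
  have y1 : y ≠ 0 := fun f => by
    rcases y0 f with f | f
    · exact hg 1 (by simpa using f)
    · exact hg (-1) (by simpa using f)
  rw [e] at e1
  push_cast at e1
  have := hn y hy y1 (by nlinarith [sq_nonneg (5 * B (ρ g w) w)])
  rw [this] at e1
  nlinarith [sq_nonneg (5 * B (ρ g w) w)]

theorem kd3 [Finite G] (hidx : ∀ H : Subgroup G, H.index ≠ 23 ∧ H.index ≠ 24) (hn : NonA B L w)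
    (e : d = 3) : False := by
  refine h.k24 hidx fun g => ?_
  obtain ⟨y, hy, y0, e1⟩ := h.kgen (c := (2 : ℕ)) (by norm_num) g (h.kodd (by rw [e]; decide) g)
  by_cases y1 : y = 0
  · exact or_assoc.mp (Or.inl (y0 y1))
  · refine Or.inr (Or.inr ?_)
    rw [e] at e1 ⊢
    push_cast at e1 ⊢
    have := hn y hy y1 (by nlinarith [sq_nonneg (3 * B (ρ g w) w)])
    rw [this] at e1
    linarith

theorem kd10a (hn : NonA B L w) (e : d = 10) (g : G) : ∃ ε : ℚ, (ε = 1 ∨ ε = -1) ∧
    ε • ρ g w - w ∈ L ∧ (ε * (d * B (ρ g w) w) - 23) * (ε * (d * B (ρ g w) w) - 3) *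
      (ε * (d * B (ρ g w) w) + 7) = 0 := by
  obtain ⟨y, hy, y0, e1⟩ := h.kgen (c := (1 : ℕ)) (by norm_num) g (h.kone g)
  by_cases y1 : y = 0
  · rcases y0 y1 with f | f
    · exact ⟨1, Or.inl rfl, by simp [f], by rw [f, h.ww]; ring⟩
    · exact ⟨-1, Or.inr rfl, by simp [f], by
        rw [f, map_neg, LinearMap.neg_apply, mul_neg, h.ww]; ring⟩
  obtain ⟨j, m, hm, hk⟩ := h.kk g
  obtain ⟨n, hn', -⟩ := h.PP_norm hy
  rw [hk] at e1 ⊢
  have dw := h.dw
  rw [e] at e1 dw ⊢
  generalize hK : (((10 : ℕ) : ℤ) * j + 23 * m : ℤ) = k at e1 ⊢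
  push_cast at e1 dw hK
  have e2 : k ^ 2 + 20 * n = 529 := by
    have : (k : ℚ) ^ 2 + 20 * n = 529 := by linear_combination e1 - 10 * hn'
    exact_mod_cast this
  have e3 : k ^ 2 < 69 ∨ k ^ 2 = 89 := by
    rcases le_or_gt (B y y) 2 with f | f
    · have := hn y hy y1 f
      rw [this] at e1
      have : (k : ℚ) ^ 2 = 89 := by linarith
      exact Or.inr (by exact_mod_cast this)
    · have : (k : ℚ) ^ 2 < 69 := by linarith
      exact Or.inl (by exact_mod_cast this)
  have k1 : -10 < k := by rcases e3 with f | f <;> nlinarith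
  have k2 : k < 10 := by rcases e3 with f | f <;> nlinarith
  have e4 : k = 3 ∨ k = -7 ∨ k = -3 ∨ k = 7 := by
    clear e1
    interval_cases k <;> omega
  have p : ∀ r : ℤ, m = 10 * r + 1 → (1 : ℚ) • ρ g w - w ∈ L := fun r hr => by
    have := L.add_mem hm ((dw (10 * r)).mpr ⟨r, rfl⟩)
    rw [hr] at this
    push_cast at this
    convert this using 1
    module
  have q : ∀ r : ℤ, m = 10 * r - 1 → (-1 : ℚ) • ρ g w - w ∈ L := fun r hr => by
    have := L.neg_mem (L.add_mem hm ((dw (10 * r)).mpr ⟨r, rfl⟩))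
    rw [hr] at this
    push_cast at this
    convert this using 1
    module
  rcases e4 with f | f | f | f
  · exact ⟨1, Or.inl rfl, p (m / 10) (by omega), by rw [f]; norm_num⟩
  · exact ⟨1, Or.inl rfl, p (m / 10) (by omega), by rw [f]; norm_num⟩
  · exact ⟨-1, Or.inr rfl, q (m / 10 + 1) (by omega), by rw [f]; norm_num⟩
  · exact ⟨-1, Or.inr rfl, q (m / 10 + 1) (by omega), by rw [f]; norm_num⟩

theorem kd10 [Finite G] (hn : NonA B L w) (e : d = 10) : False := by
  have := Fintype.ofFinite G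
  choose ε h1 h2 h3 using h.kd10a hn e
  have sq : ∀ g, ε g * ε g = 1 := fun g => by rcases h1 g with f | f <;> rw [f] <;> norm_num
  have w2 : (2 : ℚ) • w ∉ L := fun f => by
    obtain ⟨k, hk⟩ := (h.dw 2).mp f
    rw [e] at hk
    have : (2 : ℤ) = 10 * k := by exact_mod_cast hk
    omega
  have uq : ∀ (a b : ℚ) (u : V), (a = 1 ∨ a = -1) → (b = 1 ∨ b = -1) → a • u - w ∈ L →
      b • u - w ∈ L → a = b := by
    rintro a b u (rfl | rfl) (rfl | rfl) ha hb
    · rfl
    · exact absurd (by convert L.neg_mem (L.add_mem ha hb) using 1; module) w2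
    · exact absurd (by convert L.neg_mem (L.add_mem ha hb) using 1; module) w2
    · rfl
  have mul : ∀ g k, ε (g * k) = ε g * ε k := fun g k => by
    refine uq _ _ (ρ (g * k) w) (h1 _) (by
      rcases h1 g with f | f <;> rcases h1 k with f' | f' <;> rw [f, f'] <;> norm_num) (h2 _) ?_
    have e1 : ε g • ρ g (ε k • ρ k w - w) ∈ L := by
      have := h.invL g _ (h2 k)
      rcases h1 g with f | f <;> rw [f]
      · rwa [one_smul]
      · rw [neg_one_smul]
        exact L.neg_mem this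
    convert L.add_mem e1 (h2 g) using 1
    simp only [map_mul, Module.End.mul_apply, map_sub, map_smul]
    module
  let v : G → V := fun g => ε g • ρ g w
  have s0 : ∑ g, v g = 0 := by
    by_contra s0
    obtain ⟨k, hk⟩ := h.toRep.no_line s0
    refine hk (ε k) ?_
    rw [map_sum, Finset.smul_sum]
    refine Fintype.sum_equiv (Equiv.mulLeft k) _ _ fun g => ?_
    simp only [v, Equiv.coe_mulLeft, map_smul, map_mul, Module.End.mul_apply, mul, smul_smul,
      ← mul_assoc, sq, one_mul]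
  let K : G → ℚ := fun g => ε g * (d * B (ρ g w) w)
  have S1 : ∑ g, K g = 0 := by
    have := congrArg (fun z => d * B z w) s0
    simp only [map_sum, LinearMap.sum_apply, map_zero, LinearMap.zero_apply, mul_zero,
      Finset.mul_sum, v, map_smul, LinearMap.smul_apply, smul_eq_mul] at this
    rw [← this]
    exact Finset.sum_congr rfl fun g _ => by simp only [K]; ring
  have S2 : ∑ g, K g ^ 2 = 23 * (Nat.card G : ℚ) := by
    rw [← h.ksq]
    exact Finset.sum_congr rfl fun g _ => by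
      simp only [K]
      linear_combination (d * B (ρ g w) w) ^ 2 * sq g
  have S3 : ∑ g, K g ^ 3 = -46 * (Nat.card G : ℚ) := by
    have : ∀ g, K g ^ 3 = 19 * K g ^ 2 + 113 * K g - 483 := fun g => by
      simp only [K]
      linear_combination h3 g
    simp only [this, Finset.sum_sub_distrib, Finset.sum_add_distrib, ← Finset.mul_sum, S1, S2,
      Finset.sum_const, Finset.card_univ, ← Nat.card_eq_fintype_card, nsmul_eq_mul]
    ring
  have c := h.toRep.kcube v
  have c2 : ∀ k, ∑ g, B (v k) (v g) ^ 3 = -46 * (Nat.card G : ℚ) / 1000 := fun k => by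
    rw [← S3, Finset.sum_div]
    refine (Fintype.sum_equiv (Equiv.mulLeft k) _ _ fun g => ?_).symm
    simp only [v, K, Equiv.coe_mulLeft, map_smul, map_mul, Module.End.mul_apply, mul,
      LinearMap.smul_apply, smul_eq_mul, h.inv, h.symm w, e]
    have : ε k * ε g * (ε k * B (ρ g w) w) = ε g * B (ρ g w) w := by
      linear_combination (ε g * B (ρ g w) w) * sq k
    rw [this]
    push_cast
    ring
  simp only [c2, Finset.sum_const, Finset.card_univ, ← Nat.card_eq_fintype_card,
    nsmul_eq_mul] at c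
  have p1 : (0 : ℚ) < Nat.card G := by exact_mod_cast Nat.card_pos
  nlinarith

theorem dcases [Finite G] (hidx : ∀ H : Subgroup G, H.index ≠ 23 ∧ H.index ≠ 24)
    (hn : NonA B L w) : d = 1 ∨ d = 2 ∨ d = 6 := by
  rcases h.kdlist hidx with e | e | e | e | e | e
  · exact Or.inl e
  · exact Or.inr (Or.inl e)
  · exact (h.kd3 hidx hn e).elim
  · exact (h.kd5 hn e).elim
  · exact Or.inr (Or.inr e)
  · exact (h.kd10 hn e).elim

theorem kshift {y : V} {k : ℤ} (hk : y + ((k : ℚ) * d / 23) • w ∈ L) (h1 : 23 ∣ k ^ 2 - 1) :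
    ∃ e : ℤ, e ^ 2 = 1 ∧ y + ((e : ℚ) * d / 23) • w ∈ L := by
  have hp : Prime (23 : ℤ) := Int.prime_iff_natAbs_prime.mpr (by norm_num)
  have key : ∀ e q : ℤ, k = e + 23 * q → y + ((e : ℚ) * d / 23) • w ∈ L := fun e q hq => by
    have := L.sub_mem hk ((h.dw (d * q)).mpr ⟨q, rfl⟩)
    rw [hq] at this
    push_cast at this
    convert this using 1
    module
  rw [show k ^ 2 - 1 = (k - 1) * (k + 1) by ring] at h1
  rcases hp.dvd_or_dvd h1 with ⟨q, hq⟩ | ⟨q, hq⟩
  · exact ⟨1, by norm_num, key 1 q (by linarith)⟩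
  · exact ⟨-1, by norm_num, key (-1) q (by linarith)⟩

theorem knorm {y : V} (h0 : B y w = 0) (k : ℚ) :
    B (y + (k * d / 23) • w) (y + (k * d / 23) • w) = B y y + k ^ 2 * d / 23 := by
  simp only [map_add, map_smul, LinearMap.add_apply, LinearMap.smul_apply, smul_eq_mul,
    h.symm w y, h0]
  linear_combination (k ^ 2 * d / 529) * h.ww

theorem kpair {y : V} (h0 : B y w = 0) (k : ℚ) : B (y + (k * d / 23) • w) w = k := by
  simp only [map_add, map_smul, LinearMap.add_apply, LinearMap.smul_apply, smul_eq_mul, h0]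
  linear_combination (k / 23) * h.ww

theorem two [Finite G] (hidx : ∀ H : Subgroup G, H.index ≠ 23 ∧ H.index ≠ 24)
    (hn : NonA B L w) (h2 : d = 2) : ¬ ∃ y, PP B L w y ∧ B y y = 44 / 23 := by
  rintro ⟨y, hy, yy⟩
  obtain ⟨k, hk⟩ := h.PP_add hy
  obtain ⟨n, hn1⟩ := h.int _ hk _ hk
  rw [h.knorm hy.1, yy, h2] at hn1
  have e1 : 44 + k ^ 2 * 2 = 23 * n := by
    have : (44 + k ^ 2 * 2 : ℚ) = 23 * n := by push_cast at hn1; linarith
    exact_mod_cast this
  obtain ⟨e, he, hl⟩ := h.kshift hk (by omega)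
  have he' : (e : ℚ) ^ 2 = 1 := by exact_mod_cast he
  have ll := h.knorm hy.1 e
  rw [yy, he'] at ll
  generalize y + ((e : ℚ) * d / 23) • w = l at hl ll
  have ll : B l l = 2 := by rw [ll, h2]; norm_num
  have rt : ∀ r ∈ L, B r r = 2 → B r w ^ 2 = 1 := fun r hr rr => by
    have p := h.PP_proj (y := r) fun a ha _ => h.int r hr a ha
    have q := h.norm_proj r
    obtain ⟨j, hj⟩ := h.wint r hr
    have r0 : r - (d * B r w / 23) • w ≠ 0 := fun f => by
      rw [f, rr, hj, h2, map_zero] at q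
      have : (j : ℚ) ^ 2 = 23 := by push_cast at q; linarith
      have : j ^ 2 = 23 := by exact_mod_cast this
      have k1 : -5 < j := by nlinarith
      have k2 : j < 5 := by nlinarith
      interval_cases j <;> omega
    have := hn _ p r0 (by rw [q, rr]; have : 0 ≤ (d : ℚ) * B r w ^ 2 / 23 := by positivity
                          linarith)
    rw [q, rr, h2] at this
    push_cast at this
    linarith
  refine h.toRep.k23 hidx (a := l) (fun f => by rw [f] at ll; simp at ll) fun g => ?_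
  obtain ⟨c1, c2, c3, c4⟩ := h.toRep.kcs (a := l) (b := ρ g l) (h.inv g l l)
  obtain ⟨m, hm⟩ := h.int _ (h.invL g l hl) l hl
  have gl := h.inv g l l
  have r1 := rt l hl ll
  have r2 := rt _ (h.invL g l hl) (gl.trans ll)
  rw [hm, ll] at c1 c2 c3 c4
  have m1 : m ≤ 2 := by exact_mod_cast c1
  have m2 : -2 ≤ m := by exact_mod_cast c2
  have pm : ∀ a : ℚ, a ^ 2 = 1 → a = 1 ∨ a = -1 := fun a ha =>
    mul_self_eq_one_iff.mp (by rw [← ha, pow_two])
  interval_cases m
  · exact Or.inr (Or.inl (c4 (by norm_num)))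
  · exfalso
    have := rt _ (L.add_mem hl (h.invL g l hl)) (by
      simp only [map_add, LinearMap.add_apply, gl, ll, h.symm l (ρ g l), hm]; norm_num)
    rw [map_add, LinearMap.add_apply] at this
    rcases pm _ r1 with f | f <;> rcases pm _ r2 with f' | f' <;> rw [f, f'] at this <;>
      norm_num at this
  · exact Or.inr (Or.inr (by rw [hm]; norm_num))
  · exfalso
    have := rt _ (L.sub_mem hl (h.invL g l hl)) (by
      simp only [map_sub, LinearMap.sub_apply, gl, ll, h.symm l (ρ g l), hm]; norm_num)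
    rw [map_sub, LinearMap.sub_apply] at this
    rcases pm _ r1 with f | f <;> rcases pm _ r2 with f' | f' <;> rw [f, f'] at this <;>
      norm_num at this
  · exact Or.inl (c3 (by norm_num))

section A

variable {y : V} (hy : PP B L w y) (hg : ∀ i, 0 < i → i < 23 → B y (ρ (x ^ i) y) = -1 / 23)
include hy hg

omit hg in
theorem kAsum : ∑ i ∈ Finset.range 23, ρ (x ^ i) y = 0 := by
  rw [h.sumX, hy.1, mul_zero, zero_smul]

theorem kAnorm : B y y = 22 / 23 := by
  have := congrArg (B y) (h.kAsum hy)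
  rw [map_sum, Finset.sum_range_succ', Finset.sum_congr rfl fun i hi => hg (i + 1) (by omega)
    (by have := Finset.mem_range.mp hi; omega)] at this
  simp only [Finset.sum_const, Finset.card_range, nsmul_eq_mul, pow_zero, map_one,
    Module.End.one_apply, map_zero] at this
  push_cast at this
  linarith

theorem kAgram {i j : ℕ} (hi : i < 23) (hj : j < 23) :
    B (ρ (x ^ i) y) (ρ (x ^ j) y) = (if i = j then 1 else 0) - 1 / 23 := by
  have key : ∀ i j : ℕ, i < j → j < 23 → B (ρ (x ^ i) y) (ρ (x ^ j) y) = -1 / 23 := by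
    intro i j a b
    obtain ⟨k, rfl⟩ := Nat.exists_eq_add_of_le a.le
    rw [pow_add, map_mul, Module.End.mul_apply, h.inv]
    exact hg k (by omega) (by omega)
  rcases lt_trichotomy i j with f | f | f
  · rw [key i j f hj, if_neg f.ne]
    norm_num
  · rw [f, h.inv, h.kAnorm hy hg, if_pos rfl]
    norm_num
  · rw [h.symm, key j i f hi, if_neg f.ne']
    norm_num

theorem kAframe (z : V) : ∑ i ∈ Finset.range 23, B z (ρ (x ^ i) y) • ρ (x ^ i) y +
    (d * B z w / 23) • w = z := by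
  have := h.fin
  let T : Module.End ℚ V := ∑ i ∈ Finset.range 23, (B.flip (ρ (x ^ i) y)).smulRight (ρ (x ^ i) y) +
    (((d : ℚ) / 23) • B.flip w).smulRight w
  have hT : ∀ z, T z = ∑ i ∈ Finset.range 23, B z (ρ (x ^ i) y) • ρ (x ^ i) y +
      (d * B z w / 23) • w := fun z => by
    simp only [T, LinearMap.add_apply, LinearMap.sum_apply, LinearMap.smulRight_apply,
      LinearMap.smul_apply, LinearMap.BilinForm.flip_apply, smul_eq_mul]
    congr 2
    ring
  let U := Submodule.span ℚ (Set.range fun i : ℕ => ρ (x ^ i) y)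
  have y0 : y ≠ 0 := fun f => by
    have := h.kAnorm hy hg
    rw [f, map_zero] at this
    norm_num at this
  have d1 := dim_ge (ρ x) U (fun u hu => by
    have : U.map (ρ x) ≤ U := by
      rw [Submodule.map_span, Submodule.span_le]
      rintro _ ⟨_, ⟨i, rfl⟩, rfl⟩
      exact Submodule.subset_span ⟨i + 1, by simp [pow_succ']⟩
    exact this ⟨u, hu, rfl⟩) (y := y) (Submodule.subset_span ⟨0, by simp⟩) y0
    (by simpa only [map_pow] using h.kAsum hy)
  have wU : w ∉ U := fun f => by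
    have : U ≤ LinearMap.ker (B.flip w) := Submodule.span_le.mpr (by
      rintro _ ⟨i, rfl⟩
      exact (h.PP_x hy i).1)
    exact (h.pos w h.w0).ne' (this f)
  have d2 := Submodule.finrank_lt_finrank_of_lt (show U < U ⊔ Submodule.span ℚ {w} from
    lt_of_le_of_ne le_sup_left fun f => wU (f ▸ Submodule.mem_sup_right
      (Submodule.mem_span_singleton_self w)))
  have d3 : U ⊔ Submodule.span ℚ {w} = ⊤ := Submodule.eq_top_of_finrank_eq (le_antisymm
    (Submodule.finrank_le _) (by rw [h.dim]; omega))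
  have d4 : U ⊔ Submodule.span ℚ {w} ≤ LinearMap.eqLocus T LinearMap.id := by
    refine sup_le (Submodule.span_le.mpr ?_) ((Submodule.span_singleton_le_iff_mem _ _).mpr ?_)
    · rintro _ ⟨i, rfl⟩
      change T (ρ (x ^ i) y) = ρ (x ^ i) y
      have lt := Nat.mod_lt i (show 0 < 23 by norm_num)
      rw [pow_eq_pow_mod i h.x23, hT, (h.PP_x hy _).1, Finset.sum_congr rfl fun j hj => by
        rw [h.kAgram hy hg lt (Finset.mem_range.mp hj), sub_smul, ite_smul, one_smul, zero_smul],
        Finset.sum_sub_distrib, ← Finset.smul_sum, h.kAsum hy, Finset.sum_ite_eq,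
        if_pos (Finset.mem_range.mpr lt)]
      simp
    · change T w = w
      rw [hT, h.ww, Finset.sum_congr rfl fun j _ => by
        rw [h.symm, (h.PP_x hy j).1, zero_smul]]
      simp
  rw [← hT]
  exact d4 (d3 ▸ trivial : z ∈ U ⊔ Submodule.span ℚ {w})

theorem kApars (z : V) :
    ∑ i ∈ Finset.range 23, B z (ρ (x ^ i) y) ^ 2 = B z z - d * B z w ^ 2 / 23 := by
  have := congrArg (B z) (h.kAframe hy hg z)
  simp only [map_add, map_sum, map_smul, smul_eq_mul, ← pow_two] at this
  linear_combination this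

theorem kAk : ∃ k s : ℤ, y + ((k : ℚ) * d / 23) • w ∈ L ∧ k ^ 2 * d = 1 + 23 * s := by
  obtain ⟨k, hk⟩ := h.PP_add hy
  obtain ⟨n, hn⟩ := h.int _ hk _ hk
  rw [h.knorm hy.1, h.kAnorm hy hg] at hn
  refine ⟨k, n - 1, hk, ?_⟩
  have : (k : ℚ) ^ 2 * d = 1 + 23 * (n - 1) := by linarith
  exact_mod_cast this

theorem kAroot {z : V} (hz : z ∈ L) (zz : B z z = 2) : ∃ j : ℤ, B z w = j ∧
    (d * j ^ 2 = 0 ∨ d * j ^ 2 = 1 ∨ d * j ^ 2 = 4 ∨ d * j ^ 2 = 23 ∨ d * j ^ 2 = 24 ∨
      d * j ^ 2 = 46) := by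
  obtain ⟨k, s, hk, hs⟩ := h.kAk hy hg
  obtain ⟨j, hj⟩ := h.wint z hz
  refine ⟨j, hj, ?_⟩
  obtain ⟨a, r, r0, r1, e⟩ : ∃ a r : ℤ, 0 ≤ r ∧ r < 23 ∧ k * d * j = 23 * a + r :=
    ⟨k * d * j / 23, k * d * j % 23, by omega, by omega, by omega⟩
  have e' : (k : ℚ) * d * j = 23 * a + r := by exact_mod_cast e
  have s1 : ∑ i ∈ Finset.range 23, B z (ρ (x ^ i) y) = 0 := by
    rw [← map_sum, h.kAsum hy, map_zero]
  have s2 := h.kApars hy hg z
  rw [zz, hj] at s2
  have s3 : 0 ≤ ∑ i ∈ Finset.range 23, (B z (ρ (x ^ i) y) ^ 2 + (2 * r / 23 - 1) *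
      B z (ρ (x ^ i) y) + r / 23 * (r / 23 - 1)) := Finset.sum_nonneg fun i _ => by
    obtain ⟨m, hm⟩ := h.int z hz _ (h.invL (x ^ i) _ hk)
    rw [map_add, map_smul, h.xiw, map_add, map_smul, hj, smul_eq_mul] at hm
    have e1 : B z (ρ (x ^ i) y) = (m - a : ℤ) - r / 23 := by
      push_cast
      linear_combination hm - e' / 23
    have e2 : 0 ≤ (m - a) * (m - a - 1) := by
      rcases le_or_gt (m - a) 0 with f | f
      · exact mul_nonneg_of_nonpos_of_nonpos f (by omega)
      · exact mul_nonneg f.le (by omega)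
    have e3 : (0 : ℚ) ≤ ((m - a : ℤ) : ℚ) * ((m - a : ℤ) - 1) := by exact_mod_cast e2
    rw [e1]
    linarith
  simp only [Finset.sum_add_distrib, ← Finset.mul_sum, s1, s2, Finset.sum_const,
    Finset.card_range, nsmul_eq_mul] at s3
  have s4 : d * j ^ 2 + r * (23 - r) ≤ 46 := by
    have : (d : ℚ) * j ^ 2 + r * (23 - r) ≤ 46 := by push_cast at s3; linarith
    exact_mod_cast this
  have s5 : r ^ 2 = d * j ^ 2 + 23 * (s * d * j ^ 2 - 2 * a * (k * d * j) + 23 * a ^ 2) := by
    have : r = k * d * j - 23 * a := by linarith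
    rw [this]
    linear_combination (d * j ^ 2) * hs
  have s6 : (0 : ℤ) ≤ d * j ^ 2 := by positivity
  generalize (d : ℤ) * j ^ 2 = D at *
  generalize (s * d * j ^ 2 - 2 * a * (k * d * j) + 23 * a ^ 2) = t at *
  clear * - r0 r1 s4 s5 s6
  interval_cases r <;> omega

theorem kAr {i : ℕ} (i0 : 0 < i) (hi : i < 23) : B (y - ρ (x ^ i) y) (y - ρ (x ^ i) y) = 2 := by
  simp only [map_sub, LinearMap.sub_apply, h.inv, h.symm (ρ (x ^ i) y) y, hg i i0 hi,
    h.kAnorm hy hg]
  norm_num

theorem kAspan (h0 : ∀ z ∈ L, B z z = 2 → B z w = 0) : False := by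
  rcases h.irr (Submodule.span ℚ {z | z ∈ L ∧ B z z = 2}) (fun g u hu => by
    have : (Submodule.span ℚ {z | z ∈ L ∧ B z z = 2}).map (ρ g) ≤
        Submodule.span ℚ {z | z ∈ L ∧ B z z = 2} := by
      rw [Submodule.map_span, Submodule.span_le]
      rintro _ ⟨z, hz, rfl⟩
      exact Submodule.subset_span ⟨h.invL g z hz.1, (h.inv g z z).trans hz.2⟩
    exact this ⟨u, hu, rfl⟩) with e | e
  · have r := h.kAr hy hg (i := 1) (by norm_num) (by norm_num)
    have := Submodule.span_eq_bot.mp e _ ⟨h.PP_sub hy 1, r⟩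
    rw [this] at r
    simp at r
  · have : Submodule.span ℚ {z | z ∈ L ∧ B z z = 2} ≤ LinearMap.ker (B.flip w) :=
      Submodule.span_le.mpr fun z hz => h0 z hz.1 hz.2
    exact (h.pos w h.w0).ne' (this (e ▸ trivial : w ∈ Submodule.span ℚ {z | z ∈ L ∧ B z z = 2}))

theorem kA6 (h0 : ∀ z ∈ L, B z z = 2 → ∃ j : ℤ, B z w = 2 * j) (g : G) :
    ∀ a ∈ L, B a w = 0 → ∃ j : ℤ, B (ρ g w) a = (2 : ℕ) * j := fun a ha a0 => by
  have e := congrArg (B (ρ g w)) (h.kAframe hy hg a)
  have s1 : ∑ i ∈ Finset.range 23, B a (ρ (x ^ i) y) = 0 := by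
    rw [← map_sum, h.kAsum hy, map_zero]
  obtain ⟨j, hj⟩ := exists_int_sum (Finset.range 23) (fun i => B a (ρ (x ^ i) y) *
      (B (ρ g w) (ρ (x ^ i) y) - B (ρ g w) y) / 2) fun i hi => by
    obtain ⟨m, hm⟩ := (h.PP_x hy i).2 a ha a0
    rcases Nat.eq_zero_or_pos i with rfl | i0
    · exact ⟨0, by simp⟩
    obtain ⟨j, hj⟩ := h0 _ (h.invL g⁻¹ _ (h.PP_sub hy i))
      ((h.inv _ _ _).trans (h.kAr hy hg i0 (Finset.mem_range.mp hi)))
    rw [h.symm, ← h.toRep.adj, map_sub] at hj
    refine ⟨-(m * j), ?_⟩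
    rw [h.symm a, hm]
    push_cast
    linear_combination (-(m : ℚ) / 2) * hj
  refine ⟨j, ?_⟩
  simp only [map_add, map_sum, map_smul, smul_eq_mul, a0, mul_zero, zero_div, zero_mul,
    add_zero] at e
  simp only [mul_sub, ← Finset.sum_div, Finset.sum_sub_distrib, ← Finset.sum_mul, s1, e] at hj
  push_cast
  linarith

end A

theorem notA [Finite G] (hidx : ∀ H : Subgroup G, H.index ≠ 23 ∧ H.index ≠ 24) :
    ¬ CaseA ρ B L x w := by
  rintro ⟨y, hy, hg⟩
  have z0 : d = 2 ∨ d = 3 ∨ d = 5 ∨ d = 10 → False := fun e => h.kAspan hy hg fun z hz zz => by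
    obtain ⟨j, hj, f⟩ := h.kAroot hy hg hz zz
    have k0 : j ^ 2 < 24 := by rcases e with e | e | e | e <;> rw [e] at f <;> omega
    have k1 : -5 < j := by nlinarith
    have k2 : j < 5 := by nlinarith
    have : j = 0 := by
      clear hj
      rcases e with e | e | e | e <;> rw [e] at f <;> interval_cases j <;> omega
    rw [hj, this, Int.cast_zero]
  rcases h.kdlist hidx with e | e | e | e | e | e
  · obtain ⟨k, s, hk, hs⟩ := h.kAk hy hg
    obtain ⟨c, hc, hl⟩ := h.kshift hk ⟨s, by rw [e] at hs; push_cast at hs; linarith⟩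
    have hc' : (c : ℚ) ^ 2 = 1 := by exact_mod_cast hc
    have ll := h.knorm hy.1 c
    rw [h.kAnorm hy hg, hc'] at ll
    generalize y + ((c : ℚ) * d / 23) • w = l at hl ll
    have ll : B l l = 1 := by rw [ll, e]; norm_num
    refine h.toRep.k23 hidx (a := l) (fun f => by rw [f] at ll; simp at ll) fun g => ?_
    obtain ⟨c1, c2, c3, c4⟩ := h.toRep.kcs (a := l) (b := ρ g l) (h.inv g l l)
    obtain ⟨m, hm⟩ := h.int _ (h.invL g l hl) l hl
    rw [hm, ll] at c1 c2 c3 c4
    have m1 : m ≤ 1 := by exact_mod_cast c1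
    have m2 : -1 ≤ m := by exact_mod_cast c2
    interval_cases m
    · exact Or.inr (Or.inl (c4 (by norm_num)))
    · exact Or.inr (Or.inr (by rw [hm]; norm_num))
    · exact Or.inl (c3 (by norm_num))
  · exact z0 (by omega)
  · exact z0 (by omega)
  · exact z0 (by omega)
  · refine h.k24 hidx fun g => ?_
    obtain ⟨k, n, hk, e1, f | f | f⟩ := h.kgen' two_ne_zero g (h.kA6 hy hg (fun z hz zz => by
      obtain ⟨j, hj, f⟩ := h.kAroot hy hg hz zz
      rw [e] at f
      have k0 : j ^ 2 < 9 := by omega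
      have k1 : -3 < j := by nlinarith
      have k2 : j < 3 := by nlinarith
      have : j = 2 * (j / 2) := by
        clear hj
        interval_cases j <;> omega
      exact ⟨j / 2, by rw [hj]; exact_mod_cast this⟩) g)
    · exact Or.inl f
    · exact Or.inr (Or.inl f)
    · refine Or.inr (Or.inr ?_)
      rw [hk]
      rw [e] at e1
      push_cast at e1
      have := sq_nonneg k
      have : k ^ 2 = 1 := by omega
      exact_mod_cast this
  · exact z0 (by omega)

end Lat

end Cfsg.Agent.H2.F23
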