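import Cfsg.Agent.H2.F23d

/-!
# Rational representations of degree twenty-three: the possible discriminants
-/

set_option autoImplicit false

namespace Cfsg.Agent.H2.F23

open Module

variable {V : Type*} [AddCommGroup V] [Module ℚ V] {G : Type*} [Group G]

namespace Rep

variable {ρ : Representation ℚ G V} {B : LinearMap.BilinForm ℚ V} (h : Rep ρ B)
include h

theorem kfin : FiniteDimensional ℚ V := Module.finite_of_finrank_pos (by rw [h.dim]; norm_num)

theorem ksum [Fintype G] (a : V) :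
    ∑ g, B (ρ g a) a ^ 2 = (Nat.card G : ℚ) / 23 * B a a ^ 2 := by
  have := h.kfin
  have e := congrArg (fun z => B z a) (h.avg a a a)
  simp only [map_sum, map_smul, LinearMap.sum_apply, LinearMap.smul_apply, smul_eq_mul] at e
  simp only [pow_two]
  rw [e]
  ring

theorem kidx [Finite G] {a : V} (a0 : a ≠ 0) (t : ℚ)
    (ht : ∀ g, ρ g a = a ∨ ρ g a = -a ∨ B (ρ g a) a ^ 2 = t * B a a ^ 2) :
    ∃ H : Subgroup G, 1 - t = H.index * (1 / 23 - t) := by
  classical
  have := Fintype.ofFinite G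
  let H : Subgroup G :=
    { carrier := {g | ρ g a = a ∨ ρ g a = -a}
      mul_mem' := by
        rintro g k (e | e) (f | f) <;> simp [e, f]
      one_mem' := Or.inl (by simp)
      inv_mem' := by
        intro g hg
        have e : ρ g⁻¹ (ρ g a) = a := by
          rw [← Module.End.mul_apply, ← map_mul, inv_mul_cancel, map_one, Module.End.one_apply]
        rcases hg with f | f
        · exact Or.inl (by rwa [f] at e)
        · rw [f, map_neg] at e
          exact Or.inr (neg_eq_iff_eq_neg.mp e) }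
  refine ⟨H, ?_⟩
  have e2 : ∀ g, B (ρ g a) a ^ 2 = t * B a a ^ 2 + if g ∈ H then (1 - t) * B a a ^ 2 else 0 := by
    intro g
    split_ifs with hg
    · rcases hg with f | f <;> simp [f] <;> ring
    · rcases ht g with f | f | f
      · exact absurd (Or.inl f) hg
      · exact absurd (Or.inr f) hg
      · rw [f, add_zero]
  have e := h.ksum a
  rw [Finset.sum_congr rfl fun g _ => e2 g, Finset.sum_add_distrib, ← Finset.sum_filter] at e
  simp only [Finset.sum_const, Finset.card_univ, nsmul_eq_mul] at e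
  have c1 : (Finset.univ.filter fun g => g ∈ H).card = Nat.card H := by
    rw [Nat.card_eq_fintype_card, Fintype.card_subtype]
  rw [c1, ← Nat.card_eq_fintype_card, ← H.card_mul_index] at e
  push_cast at e
  have p1 : (0 : ℚ) < Nat.card H := by exact_mod_cast Nat.card_pos
  have p2 := h.pos a a0
  have : (Nat.card H : ℚ) * B a a ^ 2 * (1 - t - H.index * (1 / 23 - t)) = 0 := by
    linear_combination e
  have := (mul_eq_zero.mp this).resolve_left (by positivity)
  linarith

theorem kcs {a b : V} (e : B b b = B a a) : B b a ≤ B a a ∧ -B a a ≤ B b a ∧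
    (B b a = B a a → b = a) ∧ (B b a = -B a a → b = -a) := by
  have e1 : B (b - a) (b - a) = 2 * B a a - 2 * B b a := by
    simp only [map_sub, LinearMap.sub_apply, e, h.symm a b]
    ring
  have e2 : B (b + a) (b + a) = 2 * B a a + 2 * B b a := by
    simp only [map_add, LinearMap.add_apply, e, h.symm a b]
    ring
  have := h.nonneg (b - a)
  have := h.nonneg (b + a)
  refine ⟨by linarith, by linarith, fun f => sub_eq_zero.mp (h.eq_zero (by linarith)),
    fun f => eq_neg_of_add_eq_zero_left (h.eq_zero (by linarith))⟩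

theorem k23 [Finite G] (hidx : ∀ H : Subgroup G, H.index ≠ 23 ∧ H.index ≠ 24) {a : V}
    (a0 : a ≠ 0) (ht : ∀ g, ρ g a = a ∨ ρ g a = -a ∨ B (ρ g a) a = 0) : False := by
  obtain ⟨H, hH⟩ := h.kidx a0 0 fun g => by
    rcases ht g with f | f | f
    exacts [Or.inl f, Or.inr (Or.inl f), Or.inr (Or.inr (by simp [f]))]
  have : (H.index : ℚ) = 23 := by linarith
  exact (hidx H).1 (by exact_mod_cast this)

theorem kcube {ι : Type*} [Fintype ι] (v : ι → V) : 0 ≤ ∑ i, ∑ j, B (v i) (v j) ^ 3 := by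
  have := h.kfin
  obtain ⟨e, he⟩ := LinearMap.BilinForm.exists_orthogonal_basis (B := B) ⟨h.symm⟩
  have hB : ∀ a b, B a b = ∑ i, B (e i) (e i) * e.repr a i * e.repr b i := fun a b => by
    conv_lhs => rw [← e.sum_repr a, ← e.sum_repr b]
    simp only [map_sum, map_smul, LinearMap.sum_apply, LinearMap.smul_apply, smul_eq_mul]
    refine Finset.sum_congr rfl fun i _ => ?_
    rw [Finset.sum_eq_single i (fun j _ hj => by rw [show B (e j) (e i) = 0 from he hj]; simp)
      (by simp)]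
    ring
  let C : Fin (finrank ℚ V) × Fin (finrank ℚ V) × Fin (finrank ℚ V) → ℚ := fun p =>
    B (e p.1) (e p.1) * B (e p.2.1) (e p.2.1) * B (e p.2.2) (e p.2.2)
  let A : Fin (finrank ℚ V) × Fin (finrank ℚ V) × Fin (finrank ℚ V) → V → ℚ := fun p a =>
    e.repr a p.1 * e.repr a p.2.1 * e.repr a p.2.2
  have h3 : ∀ a b, B a b ^ 3 = ∑ p, C p * (A p a * A p b) := fun a b => by
    rw [hB a b, pow_three, Finset.sum_mul_sum, Finset.sum_mul]
    simp only [Fintype.sum_prod_type, Finset.mul_sum, C, A]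
    refine Finset.sum_congr rfl fun i _ => Finset.sum_congr rfl fun j _ =>
      Finset.sum_congr rfl fun k _ => ?_
    ring
  simp only [h3]
  rw [Finset.sum_congr rfl fun i _ => Finset.sum_comm, Finset.sum_comm]
  refine Finset.sum_nonneg fun p _ => ?_
  simp only [← Finset.mul_sum]
  rw [← Finset.sum_mul]
  exact mul_nonneg (mul_nonneg (mul_nonneg (h.nonneg _) (h.nonneg _)) (h.nonneg _))
    (mul_self_nonneg _)

end Rep

namespace Lat

variable {ρ : Representation ℚ G V} {B : LinearMap.BilinForm ℚ V} {L : Submodule ℤ V}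
  {x : G} {w : V} {d : ℕ} (h : Lat ρ B L x w d)
include h

theorem kD (g : G) : ∀ a ∈ L, ∃ k : ℤ, B (ρ g w) a = k := fun a ha => by
  rw [h.toRep.adj, h.symm]
  exact h.wint _ (h.invL _ a ha)

theorem kk (g : G) : ∃ j m : ℤ, ρ g w - (m : ℚ) • w ∈ L ∧
    (d : ℚ) * B (ρ g w) w = (d * j + 23 * m : ℤ) := by
  obtain ⟨m, hm⟩ := h.dual _ (h.kD g)
  obtain ⟨j, hj⟩ := h.wint _ hm
  refine ⟨j, m, hm, ?_⟩
  simp only [map_sub, map_smul, LinearMap.sub_apply, LinearMap.smul_apply, smul_eq_mul] at hj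
  push_cast
  linear_combination d * hj + m * h.ww

theorem kgen {c : ℚ} (c0 : c ≠ 0) (g : G)
    (hc : ∀ a ∈ L, B a w = 0 → ∃ j : ℤ, B (ρ g w) a = c * j) :
    ∃ y, PP B L w y ∧ (y = 0 → ρ g w = w ∨ ρ g w = -w) ∧
      23 * c ^ 2 * d * B y y = 529 - (d * B (ρ g w) w) ^ 2 := by
  have d0 : (d : ℚ) ≠ 0 := by exact_mod_cast h.dpos.ne'
  have e : 23 * c ^ 2 * d * B (c⁻¹ • ρ g w - (d * B (c⁻¹ • ρ g w) w / 23) • w)
      (c⁻¹ • ρ g w - (d * B (c⁻¹ • ρ g w) w / 23) • w) = 529 - (d * B (ρ g w) w) ^ 2 := by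
    rw [h.norm_proj]
    simp only [map_smul, LinearMap.smul_apply, smul_eq_mul, h.inv, h.ww']
    field_simp
    ring
  refine ⟨_, h.PP_proj (y := c⁻¹ • ρ g w) fun a ha h0 => ?_, fun y0 => ?_, e⟩
  · obtain ⟨j, hj⟩ := hc a ha h0
    exact ⟨j, by simp only [map_smul, LinearMap.smul_apply, smul_eq_mul, hj]; field_simp⟩
  · rw [y0] at e
    simp only [map_zero, mul_zero] at e
    obtain ⟨-, -, h1, h2⟩ := h.toRep.kcs (a := w) (b := ρ g w) (h.inv g w w)
    have e2 : (d * B (ρ g w) w - 23) * (d * B (ρ g w) w + 23) = 0 := by linear_combination e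
    rcases mul_eq_zero.mp e2 with f | f
    · exact Or.inl (h1 (mul_left_cancel₀ d0 (by linear_combination f - h.ww)))
    · exact Or.inr (h2 (mul_left_cancel₀ d0 (by linear_combination f + h.ww)))

theorem kgen' {c : ℕ} (c0 : c ≠ 0) (g : G)
    (hc : ∀ a ∈ L, B a w = 0 → ∃ j : ℤ, B (ρ g w) a = c * j) :
    ∃ k n : ℤ, (d : ℚ) * B (ρ g w) w = k ∧ k ^ 2 + 2 * c ^ 2 * d * n = 529 ∧
      (ρ g w = w ∨ ρ g w = -w ∨ 11 ≤ n) := by
  obtain ⟨y, hy, y0, e⟩ := h.kgen (c := c) (by exact_mod_cast c0) g hc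
  obtain ⟨n, hn, h11⟩ := h.PP_norm hy
  obtain ⟨j, m, -, hk⟩ := h.kk g
  refine ⟨_, n, hk, ?_, ?_⟩
  · rw [hk] at e
    have : ((d * j + 23 * m : ℤ) : ℚ) ^ 2 + 2 * c ^ 2 * d * n = 529 := by
      linear_combination e - c ^ 2 * d * hn
    exact_mod_cast this
  · by_cases f : y = 0
    · exact (or_assoc.mp (Or.inl (y0 f)))
    · exact Or.inr (Or.inr (h11 f))

theorem kone (g : G) : ∀ a ∈ L, B a w = 0 → ∃ j : ℤ, B (ρ g w) a = (1 : ℕ) * j :=
  fun a ha _ => by simpa using h.kD g a ha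

theorem kodd (hd : Odd d) (g : G) : ∀ a ∈ L, B a w = 0 → ∃ j : ℤ, B (ρ g w) a = (2 : ℕ) * j :=
  fun a ha h0 => by
    obtain ⟨k, hk⟩ := h.even0 ha h0
    obtain ⟨l, hl⟩ := h.par (h.invL g⁻¹ a ha)
    obtain ⟨j, hj⟩ := h.kD g a ha
    rw [h.inv, hk, ← h.symm, ← h.toRep.adj, hj] at hl
    obtain ⟨r, rfl⟩ := hd
    exact ⟨k - l - r * j, by rw [hj]; push_cast at hl ⊢; linear_combination -hl⟩

variable [Finite G]

theorem kidx' (s : ℚ) (ht : ∀ g, ρ g w = w ∨ ρ g w = -w ∨ (d * B (ρ g w) w) ^ 2 = s) :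
    ∃ H : Subgroup G, 1 - s / 529 = H.index * (1 / 23 - s / 529) := by
  have d0 : (d : ℚ) ≠ 0 := by exact_mod_cast h.dpos.ne'
  refine h.toRep.kidx h.w0 _ fun g => ?_
  rcases ht g with f | f | f
  · exact Or.inl f
  · exact Or.inr (Or.inl f)
  · refine Or.inr (Or.inr ?_)
    rw [h.ww', ← f]
    field_simp
    ring

theorem k24 (hidx : ∀ H : Subgroup G, H.index ≠ 23 ∧ H.index ≠ 24)
    (ht : ∀ g, ρ g w = w ∨ ρ g w = -w ∨ (d * B (ρ g w) w) ^ 2 = 1) : False := by
  obtain ⟨H, hH⟩ := h.kidx' 1 ht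
  have : (H.index : ℚ) = 24 := by linarith
  exact (hidx H).2 (by exact_mod_cast this)

theorem k9 (ht : ∀ g, ρ g w = w ∨ ρ g w = -w ∨ (d * B (ρ g w) w) ^ 2 = 9) : False := by
  obtain ⟨H, hH⟩ := h.kidx' 9 ht
  have : (7 * H.index : ℚ) = 260 := by linarith
  have : 7 * H.index = 260 := by exact_mod_cast this
  omega

omit [Finite G] in
theorem ksq [Fintype G] : ∑ g, (d * B (ρ g w) w) ^ 2 = 23 * (Nat.card G : ℚ) := by
  have d0 : (d : ℚ) ≠ 0 := by exact_mod_cast h.dpos.ne'
  simp only [mul_pow]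
  rw [← Finset.mul_sum, h.toRep.ksum, h.ww']
  field_simp

theorem ksmall : ∃ g, (d * B (ρ g w) w) ^ 2 < 23 := by
  have := Fintype.ofFinite G
  by_contra hc
  push Not at hc
  have := Finset.sum_lt_sum (s := Finset.univ) (fun g _ => hc g) ⟨1, Finset.mem_univ _, by
    simp only [map_one, Module.End.one_apply, h.ww]
    norm_num⟩
  rw [h.ksq, Finset.sum_const, Finset.card_univ, Nat.card_eq_fintype_card, nsmul_eq_mul] at this
  linarith

theorem kdlist (hidx : ∀ H : Subgroup G, H.index ≠ 23 ∧ H.index ≠ 24) :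
    d = 1 ∨ d = 2 ∨ d = 3 ∨ d = 5 ∨ d = 6 ∨ d = 10 := by
  have key : d = 1 ∨ d = 2 ∨ d = 3 ∨ d = 5 ∨ d = 6 ∨ d = 10 ∨ d = 11 ∨ d = 13 ∨ d = 22 := by
    obtain ⟨g, hg⟩ := h.ksmall
    obtain ⟨k, n, hk, e, h11⟩ := h.kgen' one_ne_zero g (h.kone g)
    have h11 : 11 ≤ n := by
      rcases h11 with f | f | f
      · rw [f, h.ww] at hg
        norm_num at hg
      · rw [f, map_neg, LinearMap.neg_apply, mul_neg, h.ww] at hg
        norm_num at hg
      · exact f
    rw [hk] at hg
    have hg : k ^ 2 < 23 := by exact_mod_cast hg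
    have k1 : -5 < k := by nlinarith
    have k2 : k < 5 := by nlinarith
    have d1 : d ≤ 24 := by
      have : (d : ℤ) ≤ 24 := by push_cast at e; nlinarith [sq_nonneg k]
      exact_mod_cast this
    have d0 := h.dpos
    have sq := h.sqf
    have s4 : ¬ 2 * 2 ∣ d := fun f => by simpa using sq 2 f
    have s9 : ¬ 3 * 3 ∣ d := fun f => by simpa using sq 3 f
    clear hk hg
    push_cast at e
    interval_cases d <;> interval_cases k <;> omega
  rcases key with e | e | e | e | e | e | e | e | e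
  iterate 6 omega
  all_goals exfalso
  · refine h.k24 hidx fun g => ?_
    obtain ⟨k, n, hk, e1, f | f | f⟩ := h.kgen' one_ne_zero g (h.kone g)
    · exact Or.inl f
    · exact Or.inr (Or.inl f)
    · refine Or.inr (Or.inr ?_)
      rw [hk]
      rw [e] at e1
      push_cast at e1
      have k1 : -17 < k := by nlinarith
      have k2 : k < 17 := by nlinarith
      have : k ^ 2 = 1 := by interval_cases k <;> omega
      exact_mod_cast this
  · refine h.k9 fun g => ?_
    obtain ⟨k, n, hk, e1, f | f | f⟩ := h.kgen' one_ne_zero g (h.kone g)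
    · exact Or.inl f
    · exact Or.inr (Or.inl f)
    · refine Or.inr (Or.inr ?_)
      rw [hk]
      rw [e] at e1
      push_cast at e1
      have k1 : -17 < k := by nlinarith
      have k2 : k < 17 := by nlinarith
      have : k ^ 2 = 9 := by interval_cases k <;> omega
      exact_mod_cast this
  · refine h.k24 hidx fun g => ?_
    obtain ⟨k, n, hk, e1, f | f | f⟩ := h.kgen' one_ne_zero g (h.kone g)
    · exact Or.inl f
    · exact Or.inr (Or.inl f)
    · refine Or.inr (Or.inr ?_)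
      rw [hk]
      rw [e] at e1
      push_cast at e1
      have k1 : -17 < k := by nlinarith
      have k2 : k < 17 := by nlinarith
      have : k ^ 2 = 1 := by interval_cases k <;> omega
      exact_mod_cast this

end Lat

end Cfsg.Agent.H2.F23
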